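import Cfsg.Agent.Lib.Root.Graph

/-!
Triangles `A ⊥ C`, `B` opposite to both; speciality of rank one pairs in classes of abstract
transvection groups.
-/

set_option autoImplicit false

namespace Cfsg.Lib.Root

open Subgroup Cfsg.Lib.Transfer Relation
open scoped Cfsg.Lib.Transfer commutatorElement MatrixGroups

variable {G : Type*} [Group G] {A B C D E F P Q R : Subgroup G} {S : Set (Subgroup G)}

theorem special_map_of_central {H : Type*} [Group H] (f : G →* H) (h : IsSpecialRankOnePair A B)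
    (hk : ∀ x ∈ A ⊔ B, f x = 1 → x ∈ centralizer ((A ⊔ B : Subgroup G) : Set G)) :
    IsSpecialRankOnePair (A.map f) (B.map f) := by
  have h' := r1_map_of_central f h.1 hk
  refine ⟨h', ?_⟩
  rintro _ ⟨a, ha, rfl⟩ ha1 b hb _ e
  have ha1' : a ≠ 1 := fun e => ha1 (by rw [e, map_one])
  have e1 := congrArg (Subgroup.map f) (pt_conj h.1 ha ha1')
  rw [map_conj, map_conj, map_inv] at e1
  have e2 := r1_conj_inj (r1_symm h') (inv_mem hb) (mem_map_of_mem f (pt_mem h.1 ha ha1'))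
    (e.trans e1.symm)
  have e3 := congrArg f (mu_eq h ha ha1')
  rw [mu, map_mul, map_mul, map_mul, map_mul, ← e2] at e3
  calc b⁻¹ * f a * b = (f a)⁻¹ * (f a * b⁻¹ * f a) * b := by group
    _ = _ := by rw [e3]; group

theorem special_of_psl2 {k : Type*} [Field k] (h : IsPSL2PairOver k A B) :
    IsSpecialRankOnePair A B := by
  obtain ⟨φ, -, hk, rfl, rfl⟩ := h
  exact special_map_of_central φ sl2_special fun x _ hx => center_le_centralizer _ (hk hx)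

theorem triangle_aux (h1 : IsRankOnePair A B) (h2 : IsRankOnePair C B) (hAC : Cm A C)
    (hBB : Cm B B) {a : G} (ha : a ∈ A) (ha1 : a ≠ 1) : ∃ c ∈ C, pt A B a ⋆ C = c⁻¹ ⋆ B ∧
      (∀ b ∈ B, ⁅pt A B a, a * c⁻¹⁆ * b = b * ⁅pt A B a, a * c⁻¹⁆) ∧ ⁅pt A B a, a * c⁻¹⁆ ⋆ C = A ∧
      ∃ b₁ ∈ B, ∃ b₂ ∈ (a * c⁻¹) ⋆ B, pt A B a * a * (pt A B a)⁻¹ = a⁻¹ * b₁ * a ∧
        (pt A B a)⁻¹ * b₁ = b₂ := by
  have hd := pt_mem h1 ha ha1
  have e1 := pt_conj h1 ha ha1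
  obtain ⟨c', hc', -, e2⟩ := r1_cond (r1_symm h2) hd (pt_ne_one h1 ha ha1)
  generalize pt A B a = d at *
  obtain ⟨c, rfl⟩ : ∃ c, c' = c⁻¹ := ⟨c'⁻¹, (inv_inv _).symm⟩
  have hc := inv_mem_iff.1 hc'
  have hcm : Cm B ((a * c⁻¹) ⋆ B) := by
    have := (hAC.conj d).conj a
    rwa [e1, ← e2, conj_inv_conj, conj_conj] at this
  have m1 : a * (d * a * d⁻¹) * a⁻¹ ∈ B := by
    have := (conj_mem_conj (g := d)).2 ha
    rwa [e1, mem_conj, inv_inv] at this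
  have m2 : c * (d * c⁻¹ * d⁻¹) * c⁻¹ ∈ B := by
    have := (conj_mem_conj (g := d)).2 hc'
    rwa [← e2, mem_conj, inv_inv] at this
  have hM := hBB.sup_right hcm
  have my : ⁅d, a * c⁻¹⁆ ∈ B ⊔ (a * c⁻¹) ⋆ B := by
    rw [show ⁅d, a * c⁻¹⁆ = d * ((a * c⁻¹) * d⁻¹ * (a * c⁻¹)⁻¹) by group]
    exact mul_mem (mem_sup_left hd) (mem_sup_right (conj_mem_conj.2 (inv_mem hd)))
  have eu : a * ⁅d, a * c⁻¹⁆ * c⁻¹ = (a * (d * a * d⁻¹) * a⁻¹) *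
      ((a * c⁻¹) * (c * (d * c⁻¹ * d⁻¹) * c⁻¹) * (a * c⁻¹)⁻¹) := by
    calc _ = a * (d * (a * c⁻¹) * d⁻¹) * (c * a⁻¹ * c⁻¹) := by group
      _ = _ := by rw [← hAC _ (inv_mem ha) c hc]; group
  have mu : a * ⁅d, a * c⁻¹⁆ * c⁻¹ ∈ B ⊔ (a * c⁻¹) ⋆ B :=
    eu ▸ mul_mem (mem_sup_left m1) (mem_sup_right (conj_mem_conj.2 m2))
  have hy := fun b hb => (hM b hb _ my).symm
  generalize hy0 : ⁅d, a * c⁻¹⁆ = y at *
  have e3 : (y * c⁻¹) ⋆ B = a⁻¹ ⋆ B := by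
    rw [show y * c⁻¹ = a⁻¹ * (a * y * c⁻¹) by group, ← conj_conj,
      conj_eq_self_of_comm fun b hb => (hM b hb _ mu).symm]
  have e4 : y ⋆ C = A := by
    rw [← conj_conj, e2, ← e1, conj_conj, hy d hd, ← conj_conj, conj_inj] at e3
    exact e3
  have e5 : y * c⁻¹ * y⁻¹ = a⁻¹ := by
    refine r1_conj_inj h1 (e4 ▸ conj_mem_conj.2 hc') (inv_mem ha) ?_
    rw [← e3, ← conj_conj (y * c⁻¹), conj_eq_self_of_comm (z := y⁻¹)
      fun b hb => (Commute.inv_left (hy b hb)).eq]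
  refine ⟨c, hc, e2.symm, hy0 ▸ hy, hy0 ▸ e4, _, m1, _,
    conj_mem_conj.2 (inv_mem (mul_mem m2 hd)), by group, ?_⟩
  have e6 : a * y * c⁻¹ = y := by rw [← inv_inv a, ← e5]; group
  rw [e6, ← hy0] at eu
  calc _ = d⁻¹ * ((a * (d * a * d⁻¹) * a⁻¹) * ((a * c⁻¹) * (c * (d * c⁻¹ * d⁻¹) * c⁻¹) *
        (a * c⁻¹)⁻¹)) * ((a * c⁻¹) * (c * (d * c⁻¹ * d⁻¹) * c⁻¹) * (a * c⁻¹)⁻¹)⁻¹ := by group
    _ = _ := by rw [← eu]; group

theorem special_of_triangle (hS : IsRootSubgroupSet S) (hA : A ∈ S) (hB : B ∈ S)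
    (h1 : IsRankOnePair A B) (h2 : IsRankOnePair C B) (hAC : Cm A C) (hne : A ≠ C) :
    IsSpecialRankOnePair A B := by
  refine special_iff.2 ⟨h1, fun a ha ha1 => ?_⟩
  obtain ⟨c, hc, e1, -, -, b₁, hb₁, b₂, hb₂, e2, e3⟩ := triangle_aux h1 h2 hAC (rs_cm hS hB) ha ha1
  have : b₂ = 1 := by
    by_contra hb
    have := rs_eq_of_mem hS hA (r1_symm h1) (rs_conj hS hB _)
      (e3 ▸ mul_mem (inv_mem (pt_mem h1 ha ha1)) hb₁) hb hb₂
    rw [← conj_conj, conj_eq_iff_eq_inv_conj, ← e1, ← pt_conj h1 ha ha1, conj_inj] at this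
    exact hne this.symm
  rw [this, inv_mul_eq_one] at e3
  rw [← e3] at e2
  calc _ = a * (pt A B a * a * (pt A B a)⁻¹) * pt A B a := by group
    _ = _ := by rw [e2]; group

/-- a root subgroup with many elements lies in no non-trivial block -/
theorem no_block (hS : IsRootSubgroupSet S) (hD : D ∈ S) (h1 : IsRankOnePair A D)
    (h2 : IsRankOnePair C D) (hA : Cm A A) (hAC : Cm A C) (hne : A ≠ C) (h3 : IsRankOnePair D E)
    (hblock : ∀ R ∈ S, R ≠ D → Cm R D → Cm R E) {a₁ a₂ a₃ : G} (ha₁ : a₁ ∈ A) (ha₂ : a₂ ∈ A)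
    (ha₃ : a₃ ∈ A) (n1 : a₁ ≠ 1) (n2 : a₂ ≠ 1) (n3 : a₃ ≠ 1) (n12 : a₂ * a₁ ≠ 1)
    (n13 : a₃ * a₁ ≠ 1) (n23 : a₃ * a₂ ≠ 1) (n123 : a₃ * (a₂ * a₁) ≠ 1) : False := by
  obtain ⟨c₀, -, -, hy, e, -⟩ := triangle_aux h1 h2 hAC (rs_cm hS hD) ha₁ n1
  generalize ⁅pt A D a₁, a₁ * c₀⁻¹⁆ = y at hy e
  have hCC : Cm C C := by
    have := hA.conj y⁻¹
    rwa [← e, inv_conj_conj] at this
  have hM : Cm (A ⊔ C) (A ⊔ C) := (hA.sup_right hAC).sup_left (hAC.symm.sup_right hCC)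
  have hθ : ∀ a ∈ A, y⁻¹ * a * y ∈ C := fun a ha => mem_conj.1 (e ▸ ha)
  have hθD : ∀ a ∈ A, ∀ d ∈ D, d ⋆ A = a ⋆ D → d ⋆ C = (y⁻¹ * a * y) ⋆ D := by
    intro a ha d hd e1
    rw [← conj_conj, conj_eq_self_of_comm hy, ← conj_conj, ← e1, conj_conj,
      (Commute.inv_left (hy d hd)).eq, ← conj_conj, ← e, inv_conj_conj]
  let τ : G → G := fun a => a * (y⁻¹ * a * y)⁻¹
  have τm : ∀ a ∈ A, τ a ∈ A ⊔ C := fun a ha =>
    mul_mem (mem_sup_left ha) (mem_sup_right (inv_mem (hθ a ha)))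
  have τmul : ∀ a ∈ A, ∀ a' ∈ A, τ a * τ a' = τ (a * a') := fun a ha a' ha' => by
    simp only [τ]
    rw [mul_assoc, ← mul_assoc _ a', ← hAC a' ha' _ (inv_mem (hθ a ha)), mul_assoc a',
      hCC _ (inv_mem (hθ a ha)) _ (inv_mem (hθ a' ha'))]
    group
  have τcm : ∀ a ∈ A, Cm (τ a ⋆ D) D := fun a ha => by
    by_cases ha1 : a = 1
    · simp only [τ, ha1]
      rw [show (1 : G) * (y⁻¹ * 1 * y)⁻¹ = 1 by group, conj_one]; exact rs_cm hS hD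
    obtain ⟨d, hd, -, e1⟩ := r1_cond h1 ha ha1
    have := (hAC.conj d).conj (y⁻¹ * a * y)⁻¹
    rwa [hθD a ha d hd e1, e1, inv_conj_conj, conj_conj, ← hAC a ha _ (inv_mem (hθ a ha))] at this
  have τne : ∀ a ∈ A, a ≠ 1 → τ a ⋆ D ≠ D := fun a ha ha1 e0 => by
    obtain ⟨d, hd, -, e1⟩ := r1_cond h1 ha ha1
    simp only [τ] at e0
    rw [hAC a ha _ (inv_mem (hθ a ha)), ← conj_conj, conj_eq_iff_eq_inv_conj, inv_inv, ← e1,
      ← hθD a ha d hd e1, conj_inj] at e0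
    exact hne e0
  have τE : ∀ a ∈ A, a ≠ 1 → ∀ t ∈ D, τ a * t * (τ a)⁻¹ ∈ centralizer (E : Set G) :=
    fun a ha ha1 t ht => cm_iff_le.1 (hblock _ (rs_conj hS hD _) (τne a ha ha1) (τcm a ha))
      (conj_mem_conj.2 ht)
  obtain ⟨t, ht, ht1⟩ := rs_exists_ne_one hS hD
  obtain ⟨a, ha, -, e1⟩ := r1_cond (r1_symm h1) (inv_mem ht) (inv_ne_one.2 ht1)
  have e2 := hθD a ha _ (inv_mem ht) e1.symm
  have k : ∀ u ∈ A ⊔ C, ∀ v ∈ A ⊔ C, ∀ a' ∈ A, v⁻¹ * u = τ a' →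
      Cm ((τ a₁ * u) ⋆ D) (v ⋆ D) := by
    intro u hu v hv a' ha' e3
    have := (τcm _ (mul_mem ha₁ ha')).conj v
    rwa [conj_conj, ← τmul _ ha₁ _ ha', ← e3, ← mul_assoc, hM v hv _ (τm _ ha₁), mul_assoc,
      mul_inv_cancel_left] at this
  have mA : a ∈ A ⊔ C := mem_sup_left ha
  have mC : y⁻¹ * a * y ∈ A ⊔ C := mem_sup_right (hθ a ha)
  have hc : Cm (⁅t, τ a₁⁆ ⋆ (A ⊔ C)) (A ⊔ C) := by
    have : Cm (τ a₁ ⋆ (t⁻¹ ⋆ (A ⊔ C))) (t⁻¹ ⋆ (A ⊔ C)) := by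
      rw [conj_sup, ← e1, e2, conj_sup, conj_conj, conj_conj]
      refine ((k _ mA _ mA 1 (one_mem _) (by simp [τ])).sup_right (k _ mA _ mC a ha ?_)).sup_left
        ((k _ mC _ mA _ (inv_mem ha) (by simp only [τ]; group)).sup_right
          (k _ mC _ mC 1 (one_mem _) (by simp only [τ]; group)))
      exact (hAC a ha _ (inv_mem (hθ a ha))).symm
    have := this.conj t
    rw [conj_inv_conj, conj_conj, conj_conj] at this
    rwa [commutatorElement_def, ← conj_conj _ (τ a₁)⁻¹, conj_eq_self_of_mem (inv_mem (τm _ ha₁))]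
  have c1 : Commute (τ a₃) ⁅⁅t, τ a₁⁆, τ a₂⁆ :=
    Commute.mul_right (hc _ (conj_mem_conj.2 (τm _ ha₂)) _ (τm _ ha₃)).symm
      (Commute.inv_right (hM _ (τm _ ha₃) _ (τm _ ha₂)))
  have f1 := τE _ ha₁ n1
  have f2 := τE _ ha₂ n2
  have f3 := τE _ ha₃ n3
  have f12 := τE _ (mul_mem ha₂ ha₁) n12
  have f13 := τE _ (mul_mem ha₃ ha₁) n13
  have f23 := τE _ (mul_mem ha₃ ha₂) n23
  have f123 := τE _ (mul_mem ha₃ (mul_mem ha₂ ha₁)) n123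
  rw [← τmul _ ha₃ _ (mul_mem ha₂ ha₁), ← τmul _ ha₂ _ ha₁] at f123
  rw [← τmul _ ha₂ _ ha₁] at f12
  rw [← τmul _ ha₃ _ ha₁] at f13
  rw [← τmul _ ha₃ _ ha₂] at f23
  generalize τ a₁ = x at *
  generalize τ a₂ = x' at *
  generalize τ a₃ = x'' at *
  have g1 : ⁅⁅t, x⁆, x'⁆ ∈ centralizer (E : Set G) := by
    have := mul_mem (mul_mem (mul_mem (f3 t ht) (f13 _ (inv_mem ht))) (f123 t ht))
      (f23 _ (inv_mem ht))
    rwa [show x'' * t * x''⁻¹ * (x'' * x * t⁻¹ * (x'' * x)⁻¹) * (x'' * (x' * x) * t *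
      (x'' * (x' * x))⁻¹) * (x'' * x' * t⁻¹ * (x'' * x')⁻¹) = x'' * ⁅⁅t, x⁆, x'⁆ * x''⁻¹ by
        simp only [commutatorElement_def]; group, c1.eq, mul_inv_cancel_right] at this
  have g2 := mul_mem g1 (inv_mem (mul_mem (mul_mem (f1 _ (inv_mem ht)) (f12 t ht))
    (f2 _ (inv_mem ht))))
  rw [show ⁅⁅t, x⁆, x'⁆ * (x * t⁻¹ * x⁻¹ * (x' * x * t * (x' * x)⁻¹) * (x' * t⁻¹ * x'⁻¹))⁻¹ = t by
    simp only [commutatorElement_def]; group] at g2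
  exact ht1 (r1_eq_one h3 ht (conj_eq_self_of_mem_centralizer g2))

theorem deg_tri (hS : IsRootSubgroupSet S) (hd : IsDegenerateRootSet S) (hA : A ∈ S)
    (hB : B ∈ S) : Cm A B ∨ IsRankOnePair A B := by
  rcases rs_tri hS hA hB with h | h | ⟨C, hC, h⟩
  · exact Or.inl h
  · exact Or.inr h
  · exact absurd (h.case hC) (hd A hA B hB)

theorem exists_triangle (hS : IsRootSubgroupSet S) (hd : IsDegenerateRootSet S) (hC : C ∈ S)
    (hAC : Cm A C) (hne : A ≠ C) (h : ReflTransGen (FAdj S) A C) :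
    ∃ P ∈ S, ∃ Q ∈ S, Cm P C ∧ P ≠ C ∧ IsRankOnePair P Q ∧ IsRankOnePair C Q := by
  by_contra hn
  push Not at hn
  have : ∀ B, ReflTransGen (FAdj S) A B → Cm B C ∧ B ≠ C := by
    intro B hB
    induction hB with
    | refl => exact ⟨hAC, hne⟩
    | tail _ h' ih =>
      exact ⟨((deg_tri hS hd hC h'.2.1).resolve_right
        (hn _ h'.1 _ h'.2.1 ih.1 ih.2 h'.2.2)).symm, fun e => r1_not_cm h'.2.2 (e ▸ ih.1)⟩
  exact (this C h).2 rfl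

end Cfsg.Lib.Root
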